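import Cfsg.Agent.H12.CentralExt.G23ChecksCover1

/-!
Kernel checks of the certificate for the group G2(3): cover.
-/

set_option autoImplicit false
set_option maxRecDepth 100000

namespace Cfsg.Agent.H12.CExt.G23

/-- The chunks. -/
def coverLens : List (ℕ × ℕ) := coverLens1

theorem cover_all : ∀ p ∈ coverLens, top.fastChunk1 labE labR chiN 3 p.1 p.2 = true := by
  intro p hp
  exact coverLens1_ok p hp

theorem cover_cover : (List.range 432).all
    (fun v => coverLens.any fun p => p.1 ≤ v && v < p.1 + p.2) = true := by decide +kernel

end Cfsg.Agent.H12.CExt.G23
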