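import Cfsg.Agent.H12.CentralExt.G23Data

/-!
Kernel checks of the certificate for the group G2(3): coverTop, part 2.
-/

set_option autoImplicit false
set_option maxRecDepth 100000

namespace Cfsg.Agent.H12.CExt.G23

theorem coverTop_84 : top.fastChunk2 labE labR labB chiN 3 84 4 = true := by decide +kernel

theorem coverTop_88 : top.fastChunk2 labE labR labB chiN 3 88 4 = true := by decide +kernel

theorem coverTop_92 : top.fastChunk2 labE labR labB chiN 3 92 4 = true := by decide +kernel

theorem coverTop_96 : top.fastChunk2 labE labR labB chiN 3 96 4 = true := by decide +kernel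

theorem coverTop_100 : top.fastChunk2 labE labR labB chiN 3 100 4 = true := by decide +kernel

theorem coverTop_104 : top.fastChunk2 labE labR labB chiN 3 104 4 = true := by decide +kernel

theorem coverTop_108 : top.fastChunk2 labE labR labB chiN 3 108 4 = true := by decide +kernel

theorem coverTop_112 : top.fastChunk2 labE labR labB chiN 3 112 4 = true := by decide +kernel

theorem coverTop_116 : top.fastChunk2 labE labR labB chiN 3 116 4 = true := by decide +kernel

theorem coverTop_120 : top.fastChunk2 labE labR labB chiN 3 120 4 = true := by decide +kernel

theorem coverTop_124 : top.fastChunk2 labE labR labB chiN 3 124 4 = true := by decide +kernel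

theorem coverTop_128 : top.fastChunk2 labE labR labB chiN 3 128 4 = true := by decide +kernel

theorem coverTop_132 : top.fastChunk2 labE labR labB chiN 3 132 4 = true := by decide +kernel

theorem coverTop_136 : top.fastChunk2 labE labR labB chiN 3 136 4 = true := by decide +kernel

theorem coverTop_140 : top.fastChunk2 labE labR labB chiN 3 140 4 = true := by decide +kernel

theorem coverTop_144 : top.fastChunk2 labE labR labB chiN 3 144 4 = true := by decide +kernel

theorem coverTop_148 : top.fastChunk2 labE labR labB chiN 3 148 4 = true := by decide +kernel

theorem coverTop_152 : top.fastChunk2 labE labR labB chiN 3 152 4 = true := by decide +kernel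

theorem coverTop_156 : top.fastChunk2 labE labR labB chiN 3 156 4 = true := by decide +kernel

theorem coverTop_160 : top.fastChunk2 labE labR labB chiN 3 160 4 = true := by decide +kernel

theorem coverTop_164 : top.fastChunk2 labE labR labB chiN 3 164 4 = true := by decide +kernel

/-- The chunks of this part. -/
def coverTopLens2 : List (ℕ × ℕ) := [(84, 4), (88, 4), (92, 4), (96, 4), (100, 4), (104, 4), (108, 4), (112, 4), (116, 4), (120, 4), (124, 4), (128, 4), (132, 4), (136, 4), (140, 4), (144, 4), (148, 4), (152, 4), (156, 4), (160, 4), (164, 4)]

theorem coverTopLens2_ok : ∀ p ∈ coverTopLens2, top.fastChunk2 labE labR labB chiN 3 p.1 p.2 = true := by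
  intro p hp
  simp only [coverTopLens2, List.mem_cons, List.not_mem_nil, or_false] at hp
  rcases hp with rfl | rfl | rfl | rfl | rfl | rfl | rfl | rfl | rfl | rfl | rfl | rfl | rfl | rfl | rfl | rfl | rfl | rfl | rfl | rfl | rfl
  · exact coverTop_84
  · exact coverTop_88
  · exact coverTop_92
  · exact coverTop_96
  · exact coverTop_100
  · exact coverTop_104
  · exact coverTop_108
  · exact coverTop_112
  · exact coverTop_116
  · exact coverTop_120
  · exact coverTop_124
  · exact coverTop_128
  · exact coverTop_132
  · exact coverTop_136
  · exact coverTop_140
  · exact coverTop_144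
  · exact coverTop_148
  · exact coverTop_152
  · exact coverTop_156
  · exact coverTop_160
  · exact coverTop_164

end Cfsg.Agent.H12.CExt.G23
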