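import Cfsg.Agent.H12.CentralExt.G23Data

/-!
Kernel checks of the certificate for the group G2(3): coverTop, part 3.
-/

set_option autoImplicit false
set_option maxRecDepth 100000

namespace Cfsg.Agent.H12.CExt.G23

theorem coverTop_168 : top.fastChunk2 labE labR labB chiN 3 168 4 = true := by decide +kernel

theorem coverTop_172 : top.fastChunk2 labE labR labB chiN 3 172 4 = true := by decide +kernel

theorem coverTop_176 : top.fastChunk2 labE labR labB chiN 3 176 4 = true := by decide +kernel

theorem coverTop_180 : top.fastChunk2 labE labR labB chiN 3 180 4 = true := by decide +kernel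

theorem coverTop_184 : top.fastChunk2 labE labR labB chiN 3 184 4 = true := by decide +kernel

theorem coverTop_188 : top.fastChunk2 labE labR labB chiN 3 188 4 = true := by decide +kernel

theorem coverTop_192 : top.fastChunk2 labE labR labB chiN 3 192 4 = true := by decide +kernel

theorem coverTop_196 : top.fastChunk2 labE labR labB chiN 3 196 4 = true := by decide +kernel

theorem coverTop_200 : top.fastChunk2 labE labR labB chiN 3 200 4 = true := by decide +kernel

theorem coverTop_204 : top.fastChunk2 labE labR labB chiN 3 204 4 = true := by decide +kernel

theorem coverTop_208 : top.fastChunk2 labE labR labB chiN 3 208 4 = true := by decide +kernel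

theorem coverTop_212 : top.fastChunk2 labE labR labB chiN 3 212 4 = true := by decide +kernel

theorem coverTop_216 : top.fastChunk2 labE labR labB chiN 3 216 4 = true := by decide +kernel

theorem coverTop_220 : top.fastChunk2 labE labR labB chiN 3 220 4 = true := by decide +kernel

theorem coverTop_224 : top.fastChunk2 labE labR labB chiN 3 224 4 = true := by decide +kernel

theorem coverTop_228 : top.fastChunk2 labE labR labB chiN 3 228 4 = true := by decide +kernel

theorem coverTop_232 : top.fastChunk2 labE labR labB chiN 3 232 4 = true := by decide +kernel

theorem coverTop_236 : top.fastChunk2 labE labR labB chiN 3 236 4 = true := by decide +kernel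

theorem coverTop_240 : top.fastChunk2 labE labR labB chiN 3 240 4 = true := by decide +kernel

theorem coverTop_244 : top.fastChunk2 labE labR labB chiN 3 244 4 = true := by decide +kernel

theorem coverTop_248 : top.fastChunk2 labE labR labB chiN 3 248 4 = true := by decide +kernel

/-- The chunks of this part. -/
def coverTopLens3 : List (ℕ × ℕ) := [(168, 4), (172, 4), (176, 4), (180, 4), (184, 4), (188, 4), (192, 4), (196, 4), (200, 4), (204, 4), (208, 4), (212, 4), (216, 4), (220, 4), (224, 4), (228, 4), (232, 4), (236, 4), (240, 4), (244, 4), (248, 4)]

theorem coverTopLens3_ok : ∀ p ∈ coverTopLens3, top.fastChunk2 labE labR labB chiN 3 p.1 p.2 = true := by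
  intro p hp
  simp only [coverTopLens3, List.mem_cons, List.not_mem_nil, or_false] at hp
  rcases hp with rfl | rfl | rfl | rfl | rfl | rfl | rfl | rfl | rfl | rfl | rfl | rfl | rfl | rfl | rfl | rfl | rfl | rfl | rfl | rfl | rfl
  · exact coverTop_168
  · exact coverTop_172
  · exact coverTop_176
  · exact coverTop_180
  · exact coverTop_184
  · exact coverTop_188
  · exact coverTop_192
  · exact coverTop_196
  · exact coverTop_200
  · exact coverTop_204
  · exact coverTop_208
  · exact coverTop_212
  · exact coverTop_216
  · exact coverTop_220
  · exact coverTop_224
  · exact coverTop_228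
  · exact coverTop_232
  · exact coverTop_236
  · exact coverTop_240
  · exact coverTop_244
  · exact coverTop_248

end Cfsg.Agent.H12.CExt.G23
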