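import Cfsg.Agent.H12.CentralExt.G23Data

/-!
Kernel checks of the certificate for the group G2(3): coverTop, part 4.
-/

set_option autoImplicit false
set_option maxRecDepth 100000

namespace Cfsg.Agent.H12.CExt.G23

theorem coverTop_252 : top.fastChunk2 labE labR labB chiN 3 252 4 = true := by decide +kernel

theorem coverTop_256 : top.fastChunk2 labE labR labB chiN 3 256 4 = true := by decide +kernel

theorem coverTop_260 : top.fastChunk2 labE labR labB chiN 3 260 4 = true := by decide +kernel

theorem coverTop_264 : top.fastChunk2 labE labR labB chiN 3 264 4 = true := by decide +kernel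

theorem coverTop_268 : top.fastChunk2 labE labR labB chiN 3 268 4 = true := by decide +kernel

theorem coverTop_272 : top.fastChunk2 labE labR labB chiN 3 272 4 = true := by decide +kernel

theorem coverTop_276 : top.fastChunk2 labE labR labB chiN 3 276 4 = true := by decide +kernel

theorem coverTop_280 : top.fastChunk2 labE labR labB chiN 3 280 4 = true := by decide +kernel

theorem coverTop_284 : top.fastChunk2 labE labR labB chiN 3 284 4 = true := by decide +kernel

theorem coverTop_288 : top.fastChunk2 labE labR labB chiN 3 288 4 = true := by decide +kernel

theorem coverTop_292 : top.fastChunk2 labE labR labB chiN 3 292 4 = true := by decide +kernel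

theorem coverTop_296 : top.fastChunk2 labE labR labB chiN 3 296 4 = true := by decide +kernel

theorem coverTop_300 : top.fastChunk2 labE labR labB chiN 3 300 4 = true := by decide +kernel

theorem coverTop_304 : top.fastChunk2 labE labR labB chiN 3 304 4 = true := by decide +kernel

theorem coverTop_308 : top.fastChunk2 labE labR labB chiN 3 308 4 = true := by decide +kernel

theorem coverTop_312 : top.fastChunk2 labE labR labB chiN 3 312 4 = true := by decide +kernel

theorem coverTop_316 : top.fastChunk2 labE labR labB chiN 3 316 4 = true := by decide +kernel

theorem coverTop_320 : top.fastChunk2 labE labR labB chiN 3 320 4 = true := by decide +kernel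

theorem coverTop_324 : top.fastChunk2 labE labR labB chiN 3 324 4 = true := by decide +kernel

theorem coverTop_328 : top.fastChunk2 labE labR labB chiN 3 328 4 = true := by decide +kernel

theorem coverTop_332 : top.fastChunk2 labE labR labB chiN 3 332 4 = true := by decide +kernel

/-- The chunks of this part. -/
def coverTopLens4 : List (ℕ × ℕ) := [(252, 4), (256, 4), (260, 4), (264, 4), (268, 4), (272, 4), (276, 4), (280, 4), (284, 4), (288, 4), (292, 4), (296, 4), (300, 4), (304, 4), (308, 4), (312, 4), (316, 4), (320, 4), (324, 4), (328, 4), (332, 4)]

theorem coverTopLens4_ok : ∀ p ∈ coverTopLens4, top.fastChunk2 labE labR labB chiN 3 p.1 p.2 = true := by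
  intro p hp
  simp only [coverTopLens4, List.mem_cons, List.not_mem_nil, or_false] at hp
  rcases hp with rfl | rfl | rfl | rfl | rfl | rfl | rfl | rfl | rfl | rfl | rfl | rfl | rfl | rfl | rfl | rfl | rfl | rfl | rfl | rfl | rfl
  · exact coverTop_252
  · exact coverTop_256
  · exact coverTop_260
  · exact coverTop_264
  · exact coverTop_268
  · exact coverTop_272
  · exact coverTop_276
  · exact coverTop_280
  · exact coverTop_284
  · exact coverTop_288
  · exact coverTop_292
  · exact coverTop_296
  · exact coverTop_300
  · exact coverTop_304
  · exact coverTop_308
  · exact coverTop_312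
  · exact coverTop_316
  · exact coverTop_320
  · exact coverTop_324
  · exact coverTop_328
  · exact coverTop_332

end Cfsg.Agent.H12.CExt.G23
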