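import Cfsg.Agent.H12.CentralExt.G23Data

/-!
Kernel checks of the certificate for the group G2(3): coverTop, part 5.
-/

set_option autoImplicit false
set_option maxRecDepth 100000

namespace Cfsg.Agent.H12.CExt.G23

theorem coverTop_336 : top.fastChunk2 labE labR labB chiN 3 336 4 = true := by decide +kernel

theorem coverTop_340 : top.fastChunk2 labE labR labB chiN 3 340 4 = true := by decide +kernel

theorem coverTop_344 : top.fastChunk2 labE labR labB chiN 3 344 4 = true := by decide +kernel

theorem coverTop_348 : top.fastChunk2 labE labR labB chiN 3 348 4 = true := by decide +kernel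

theorem coverTop_352 : top.fastChunk2 labE labR labB chiN 3 352 4 = true := by decide +kernel

theorem coverTop_356 : top.fastChunk2 labE labR labB chiN 3 356 4 = true := by decide +kernel

theorem coverTop_360 : top.fastChunk2 labE labR labB chiN 3 360 4 = true := by decide +kernel

theorem coverTop_364 : top.fastChunk2 labE labR labB chiN 3 364 4 = true := by decide +kernel

theorem coverTop_368 : top.fastChunk2 labE labR labB chiN 3 368 4 = true := by decide +kernel

theorem coverTop_372 : top.fastChunk2 labE labR labB chiN 3 372 4 = true := by decide +kernel

theorem coverTop_376 : top.fastChunk2 labE labR labB chiN 3 376 4 = true := by decide +kernel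

theorem coverTop_380 : top.fastChunk2 labE labR labB chiN 3 380 4 = true := by decide +kernel

theorem coverTop_384 : top.fastChunk2 labE labR labB chiN 3 384 4 = true := by decide +kernel

theorem coverTop_388 : top.fastChunk2 labE labR labB chiN 3 388 4 = true := by decide +kernel

theorem coverTop_392 : top.fastChunk2 labE labR labB chiN 3 392 4 = true := by decide +kernel

theorem coverTop_396 : top.fastChunk2 labE labR labB chiN 3 396 4 = true := by decide +kernel

theorem coverTop_400 : top.fastChunk2 labE labR labB chiN 3 400 4 = true := by decide +kernel

theorem coverTop_404 : top.fastChunk2 labE labR labB chiN 3 404 4 = true := by decide +kernel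

theorem coverTop_408 : top.fastChunk2 labE labR labB chiN 3 408 4 = true := by decide +kernel

theorem coverTop_412 : top.fastChunk2 labE labR labB chiN 3 412 4 = true := by decide +kernel

theorem coverTop_416 : top.fastChunk2 labE labR labB chiN 3 416 4 = true := by decide +kernel

/-- The chunks of this part. -/
def coverTopLens5 : List (ℕ × ℕ) := [(336, 4), (340, 4), (344, 4), (348, 4), (352, 4), (356, 4), (360, 4), (364, 4), (368, 4), (372, 4), (376, 4), (380, 4), (384, 4), (388, 4), (392, 4), (396, 4), (400, 4), (404, 4), (408, 4), (412, 4), (416, 4)]

theorem coverTopLens5_ok : ∀ p ∈ coverTopLens5, top.fastChunk2 labE labR labB chiN 3 p.1 p.2 = true := by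
  intro p hp
  simp only [coverTopLens5, List.mem_cons, List.not_mem_nil, or_false] at hp
  rcases hp with rfl | rfl | rfl | rfl | rfl | rfl | rfl | rfl | rfl | rfl | rfl | rfl | rfl | rfl | rfl | rfl | rfl | rfl | rfl | rfl | rfl
  · exact coverTop_336
  · exact coverTop_340
  · exact coverTop_344
  · exact coverTop_348
  · exact coverTop_352
  · exact coverTop_356
  · exact coverTop_360
  · exact coverTop_364
  · exact coverTop_368
  · exact coverTop_372
  · exact coverTop_376
  · exact coverTop_380
  · exact coverTop_384
  · exact coverTop_388
  · exact coverTop_392
  · exact coverTop_396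
  · exact coverTop_400
  · exact coverTop_404
  · exact coverTop_408
  · exact coverTop_412
  · exact coverTop_416

end Cfsg.Agent.H12.CExt.G23
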