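import Cfsg.Agent.H12.CentralExt.G23Data

/-!
Kernel checks of the certificate for the group G2(3): coverTop, part 6.
-/

set_option autoImplicit false
set_option maxRecDepth 100000

namespace Cfsg.Agent.H12.CExt.G23

theorem coverTop_420 : top.fastChunk2 labE labR labB chiN 3 420 4 = true := by decide +kernel

theorem coverTop_424 : top.fastChunk2 labE labR labB chiN 3 424 4 = true := by decide +kernel

theorem coverTop_428 : top.fastChunk2 labE labR labB chiN 3 428 4 = true := by decide +kernel

theorem coverTop_432 : top.fastChunk2 labE labR labB chiN 3 432 4 = true := by decide +kernel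

theorem coverTop_436 : top.fastChunk2 labE labR labB chiN 3 436 4 = true := by decide +kernel

theorem coverTop_440 : top.fastChunk2 labE labR labB chiN 3 440 4 = true := by decide +kernel

theorem coverTop_444 : top.fastChunk2 labE labR labB chiN 3 444 4 = true := by decide +kernel

theorem coverTop_448 : top.fastChunk2 labE labR labB chiN 3 448 4 = true := by decide +kernel

theorem coverTop_452 : top.fastChunk2 labE labR labB chiN 3 452 4 = true := by decide +kernel

theorem coverTop_456 : top.fastChunk2 labE labR labB chiN 3 456 4 = true := by decide +kernel

theorem coverTop_460 : top.fastChunk2 labE labR labB chiN 3 460 4 = true := by decide +kernel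

theorem coverTop_464 : top.fastChunk2 labE labR labB chiN 3 464 4 = true := by decide +kernel

theorem coverTop_468 : top.fastChunk2 labE labR labB chiN 3 468 4 = true := by decide +kernel

theorem coverTop_472 : top.fastChunk2 labE labR labB chiN 3 472 4 = true := by decide +kernel

theorem coverTop_476 : top.fastChunk2 labE labR labB chiN 3 476 4 = true := by decide +kernel

theorem coverTop_480 : top.fastChunk2 labE labR labB chiN 3 480 4 = true := by decide +kernel

theorem coverTop_484 : top.fastChunk2 labE labR labB chiN 3 484 4 = true := by decide +kernel

theorem coverTop_488 : top.fastChunk2 labE labR labB chiN 3 488 4 = true := by decide +kernel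

theorem coverTop_492 : top.fastChunk2 labE labR labB chiN 3 492 4 = true := by decide +kernel

theorem coverTop_496 : top.fastChunk2 labE labR labB chiN 3 496 4 = true := by decide +kernel

theorem coverTop_500 : top.fastChunk2 labE labR labB chiN 3 500 4 = true := by decide +kernel

/-- The chunks of this part. -/
def coverTopLens6 : List (ℕ × ℕ) := [(420, 4), (424, 4), (428, 4), (432, 4), (436, 4), (440, 4), (444, 4), (448, 4), (452, 4), (456, 4), (460, 4), (464, 4), (468, 4), (472, 4), (476, 4), (480, 4), (484, 4), (488, 4), (492, 4), (496, 4), (500, 4)]

theorem coverTopLens6_ok : ∀ p ∈ coverTopLens6, top.fastChunk2 labE labR labB chiN 3 p.1 p.2 = true := by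
  intro p hp
  simp only [coverTopLens6, List.mem_cons, List.not_mem_nil, or_false] at hp
  rcases hp with rfl | rfl | rfl | rfl | rfl | rfl | rfl | rfl | rfl | rfl | rfl | rfl | rfl | rfl | rfl | rfl | rfl | rfl | rfl | rfl | rfl
  · exact coverTop_420
  · exact coverTop_424
  · exact coverTop_428
  · exact coverTop_432
  · exact coverTop_436
  · exact coverTop_440
  · exact coverTop_444
  · exact coverTop_448
  · exact coverTop_452
  · exact coverTop_456
  · exact coverTop_460
  · exact coverTop_464
  · exact coverTop_468
  · exact coverTop_472
  · exact coverTop_476
  · exact coverTop_480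
  · exact coverTop_484
  · exact coverTop_488
  · exact coverTop_492
  · exact coverTop_496
  · exact coverTop_500

end Cfsg.Agent.H12.CExt.G23
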