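import Cfsg.Agent.H12.CentralExt.G23Data

/-!
Kernel checks of the certificate for the group G2(3): coverTop, part 7.
-/

set_option autoImplicit false
set_option maxRecDepth 100000

namespace Cfsg.Agent.H12.CExt.G23

theorem coverTop_504 : top.fastChunk2 labE labR labB chiN 3 504 4 = true := by decide +kernel

theorem coverTop_508 : top.fastChunk2 labE labR labB chiN 3 508 4 = true := by decide +kernel

theorem coverTop_512 : top.fastChunk2 labE labR labB chiN 3 512 4 = true := by decide +kernel

theorem coverTop_516 : top.fastChunk2 labE labR labB chiN 3 516 4 = true := by decide +kernel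

theorem coverTop_520 : top.fastChunk2 labE labR labB chiN 3 520 4 = true := by decide +kernel

theorem coverTop_524 : top.fastChunk2 labE labR labB chiN 3 524 4 = true := by decide +kernel

theorem coverTop_528 : top.fastChunk2 labE labR labB chiN 3 528 4 = true := by decide +kernel

theorem coverTop_532 : top.fastChunk2 labE labR labB chiN 3 532 4 = true := by decide +kernel

theorem coverTop_536 : top.fastChunk2 labE labR labB chiN 3 536 4 = true := by decide +kernel

theorem coverTop_540 : top.fastChunk2 labE labR labB chiN 3 540 4 = true := by decide +kernel

theorem coverTop_544 : top.fastChunk2 labE labR labB chiN 3 544 4 = true := by decide +kernel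

theorem coverTop_548 : top.fastChunk2 labE labR labB chiN 3 548 4 = true := by decide +kernel

theorem coverTop_552 : top.fastChunk2 labE labR labB chiN 3 552 4 = true := by decide +kernel

theorem coverTop_556 : top.fastChunk2 labE labR labB chiN 3 556 4 = true := by decide +kernel

theorem coverTop_560 : top.fastChunk2 labE labR labB chiN 3 560 4 = true := by decide +kernel

theorem coverTop_564 : top.fastChunk2 labE labR labB chiN 3 564 4 = true := by decide +kernel

theorem coverTop_568 : top.fastChunk2 labE labR labB chiN 3 568 4 = true := by decide +kernel

theorem coverTop_572 : top.fastChunk2 labE labR labB chiN 3 572 4 = true := by decide +kernel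

theorem coverTop_576 : top.fastChunk2 labE labR labB chiN 3 576 4 = true := by decide +kernel

theorem coverTop_580 : top.fastChunk2 labE labR labB chiN 3 580 4 = true := by decide +kernel

theorem coverTop_584 : top.fastChunk2 labE labR labB chiN 3 584 4 = true := by decide +kernel

/-- The chunks of this part. -/
def coverTopLens7 : List (ℕ × ℕ) := [(504, 4), (508, 4), (512, 4), (516, 4), (520, 4), (524, 4), (528, 4), (532, 4), (536, 4), (540, 4), (544, 4), (548, 4), (552, 4), (556, 4), (560, 4), (564, 4), (568, 4), (572, 4), (576, 4), (580, 4), (584, 4)]

theorem coverTopLens7_ok : ∀ p ∈ coverTopLens7, top.fastChunk2 labE labR labB chiN 3 p.1 p.2 = true := by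
  intro p hp
  simp only [coverTopLens7, List.mem_cons, List.not_mem_nil, or_false] at hp
  rcases hp with rfl | rfl | rfl | rfl | rfl | rfl | rfl | rfl | rfl | rfl | rfl | rfl | rfl | rfl | rfl | rfl | rfl | rfl | rfl | rfl | rfl
  · exact coverTop_504
  · exact coverTop_508
  · exact coverTop_512
  · exact coverTop_516
  · exact coverTop_520
  · exact coverTop_524
  · exact coverTop_528
  · exact coverTop_532
  · exact coverTop_536
  · exact coverTop_540
  · exact coverTop_544
  · exact coverTop_548
  · exact coverTop_552
  · exact coverTop_556
  · exact coverTop_560
  · exact coverTop_564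
  · exact coverTop_568
  · exact coverTop_572
  · exact coverTop_576
  · exact coverTop_580
  · exact coverTop_584

end Cfsg.Agent.H12.CExt.G23
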