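import Cfsg.Agent.H12.CentralExt.G23Data

/-!
Kernel checks of the certificate for the group G2(3): coverTop, part 8.
-/

set_option autoImplicit false
set_option maxRecDepth 100000

namespace Cfsg.Agent.H12.CExt.G23

theorem coverTop_588 : top.fastChunk2 labE labR labB chiN 3 588 4 = true := by decide +kernel

theorem coverTop_592 : top.fastChunk2 labE labR labB chiN 3 592 4 = true := by decide +kernel

theorem coverTop_596 : top.fastChunk2 labE labR labB chiN 3 596 4 = true := by decide +kernel

theorem coverTop_600 : top.fastChunk2 labE labR labB chiN 3 600 4 = true := by decide +kernel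

theorem coverTop_604 : top.fastChunk2 labE labR labB chiN 3 604 4 = true := by decide +kernel

theorem coverTop_608 : top.fastChunk2 labE labR labB chiN 3 608 4 = true := by decide +kernel

theorem coverTop_612 : top.fastChunk2 labE labR labB chiN 3 612 4 = true := by decide +kernel

theorem coverTop_616 : top.fastChunk2 labE labR labB chiN 3 616 4 = true := by decide +kernel

theorem coverTop_620 : top.fastChunk2 labE labR labB chiN 3 620 4 = true := by decide +kernel

theorem coverTop_624 : top.fastChunk2 labE labR labB chiN 3 624 4 = true := by decide +kernel

theorem coverTop_628 : top.fastChunk2 labE labR labB chiN 3 628 4 = true := by decide +kernel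

theorem coverTop_632 : top.fastChunk2 labE labR labB chiN 3 632 4 = true := by decide +kernel

theorem coverTop_636 : top.fastChunk2 labE labR labB chiN 3 636 4 = true := by decide +kernel

theorem coverTop_640 : top.fastChunk2 labE labR labB chiN 3 640 4 = true := by decide +kernel

theorem coverTop_644 : top.fastChunk2 labE labR labB chiN 3 644 4 = true := by decide +kernel

theorem coverTop_648 : top.fastChunk2 labE labR labB chiN 3 648 4 = true := by decide +kernel

theorem coverTop_652 : top.fastChunk2 labE labR labB chiN 3 652 4 = true := by decide +kernel

theorem coverTop_656 : top.fastChunk2 labE labR labB chiN 3 656 4 = true := by decide +kernel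

theorem coverTop_660 : top.fastChunk2 labE labR labB chiN 3 660 4 = true := by decide +kernel

theorem coverTop_664 : top.fastChunk2 labE labR labB chiN 3 664 4 = true := by decide +kernel

theorem coverTop_668 : top.fastChunk2 labE labR labB chiN 3 668 4 = true := by decide +kernel

/-- The chunks of this part. -/
def coverTopLens8 : List (ℕ × ℕ) := [(588, 4), (592, 4), (596, 4), (600, 4), (604, 4), (608, 4), (612, 4), (616, 4), (620, 4), (624, 4), (628, 4), (632, 4), (636, 4), (640, 4), (644, 4), (648, 4), (652, 4), (656, 4), (660, 4), (664, 4), (668, 4)]

theorem coverTopLens8_ok : ∀ p ∈ coverTopLens8, top.fastChunk2 labE labR labB chiN 3 p.1 p.2 = true := by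
  intro p hp
  simp only [coverTopLens8, List.mem_cons, List.not_mem_nil, or_false] at hp
  rcases hp with rfl | rfl | rfl | rfl | rfl | rfl | rfl | rfl | rfl | rfl | rfl | rfl | rfl | rfl | rfl | rfl | rfl | rfl | rfl | rfl | rfl
  · exact coverTop_588
  · exact coverTop_592
  · exact coverTop_596
  · exact coverTop_600
  · exact coverTop_604
  · exact coverTop_608
  · exact coverTop_612
  · exact coverTop_616
  · exact coverTop_620
  · exact coverTop_624
  · exact coverTop_628
  · exact coverTop_632
  · exact coverTop_636
  · exact coverTop_640
  · exact coverTop_644
  · exact coverTop_648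
  · exact coverTop_652
  · exact coverTop_656
  · exact coverTop_660
  · exact coverTop_664
  · exact coverTop_668

end Cfsg.Agent.H12.CExt.G23
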