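import Cfsg.Agent.H12.CentralExt.G23Data

/-!
Kernel checks of the certificate for the group G2(3): coverTop, part 9.
-/

set_option autoImplicit false
set_option maxRecDepth 100000

namespace Cfsg.Agent.H12.CExt.G23

theorem coverTop_672 : top.fastChunk2 labE labR labB chiN 3 672 4 = true := by decide +kernel

theorem coverTop_676 : top.fastChunk2 labE labR labB chiN 3 676 4 = true := by decide +kernel

theorem coverTop_680 : top.fastChunk2 labE labR labB chiN 3 680 4 = true := by decide +kernel

theorem coverTop_684 : top.fastChunk2 labE labR labB chiN 3 684 4 = true := by decide +kernel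

theorem coverTop_688 : top.fastChunk2 labE labR labB chiN 3 688 4 = true := by decide +kernel

theorem coverTop_692 : top.fastChunk2 labE labR labB chiN 3 692 4 = true := by decide +kernel

theorem coverTop_696 : top.fastChunk2 labE labR labB chiN 3 696 4 = true := by decide +kernel

theorem coverTop_700 : top.fastChunk2 labE labR labB chiN 3 700 4 = true := by decide +kernel

theorem coverTop_704 : top.fastChunk2 labE labR labB chiN 3 704 4 = true := by decide +kernel

theorem coverTop_708 : top.fastChunk2 labE labR labB chiN 3 708 4 = true := by decide +kernel

theorem coverTop_712 : top.fastChunk2 labE labR labB chiN 3 712 4 = true := by decide +kernel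

theorem coverTop_716 : top.fastChunk2 labE labR labB chiN 3 716 4 = true := by decide +kernel

theorem coverTop_720 : top.fastChunk2 labE labR labB chiN 3 720 4 = true := by decide +kernel

theorem coverTop_724 : top.fastChunk2 labE labR labB chiN 3 724 4 = true := by decide +kernel

theorem coverTop_728 : top.fastChunk2 labE labR labB chiN 3 728 4 = true := by decide +kernel

theorem coverTop_732 : top.fastChunk2 labE labR labB chiN 3 732 4 = true := by decide +kernel

theorem coverTop_736 : top.fastChunk2 labE labR labB chiN 3 736 4 = true := by decide +kernel

theorem coverTop_740 : top.fastChunk2 labE labR labB chiN 3 740 4 = true := by decide +kernel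

theorem coverTop_744 : top.fastChunk2 labE labR labB chiN 3 744 4 = true := by decide +kernel

theorem coverTop_748 : top.fastChunk2 labE labR labB chiN 3 748 4 = true := by decide +kernel

theorem coverTop_752 : top.fastChunk2 labE labR labB chiN 3 752 4 = true := by decide +kernel

/-- The chunks of this part. -/
def coverTopLens9 : List (ℕ × ℕ) := [(672, 4), (676, 4), (680, 4), (684, 4), (688, 4), (692, 4), (696, 4), (700, 4), (704, 4), (708, 4), (712, 4), (716, 4), (720, 4), (724, 4), (728, 4), (732, 4), (736, 4), (740, 4), (744, 4), (748, 4), (752, 4)]

theorem coverTopLens9_ok : ∀ p ∈ coverTopLens9, top.fastChunk2 labE labR labB chiN 3 p.1 p.2 = true := by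
  intro p hp
  simp only [coverTopLens9, List.mem_cons, List.not_mem_nil, or_false] at hp
  rcases hp with rfl | rfl | rfl | rfl | rfl | rfl | rfl | rfl | rfl | rfl | rfl | rfl | rfl | rfl | rfl | rfl | rfl | rfl | rfl | rfl | rfl
  · exact coverTop_672
  · exact coverTop_676
  · exact coverTop_680
  · exact coverTop_684
  · exact coverTop_688
  · exact coverTop_692
  · exact coverTop_696
  · exact coverTop_700
  · exact coverTop_704
  · exact coverTop_708
  · exact coverTop_712
  · exact coverTop_716
  · exact coverTop_720
  · exact coverTop_724
  · exact coverTop_728
  · exact coverTop_732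
  · exact coverTop_736
  · exact coverTop_740
  · exact coverTop_744
  · exact coverTop_748
  · exact coverTop_752

end Cfsg.Agent.H12.CExt.G23
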