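import Cfsg.Agent.H12.CentralExt.G23ChecksCoverTop1
import Cfsg.Agent.H12.CentralExt.G23ChecksCoverTop2
import Cfsg.Agent.H12.CentralExt.G23ChecksCoverTop3
import Cfsg.Agent.H12.CentralExt.G23ChecksCoverTop4
import Cfsg.Agent.H12.CentralExt.G23ChecksCoverTop5
import Cfsg.Agent.H12.CentralExt.G23ChecksCoverTop6
import Cfsg.Agent.H12.CentralExt.G23ChecksCoverTop7
import Cfsg.Agent.H12.CentralExt.G23ChecksCoverTop8
import Cfsg.Agent.H12.CentralExt.G23ChecksCoverTop9

/-!
Kernel checks of the certificate for the group G2(3): coverTop.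
-/

set_option autoImplicit false
set_option maxRecDepth 100000

namespace Cfsg.Agent.H12.CExt.G23

/-- The chunks. -/
def coverTopLens : List (ℕ × ℕ) := coverTopLens1 ++ coverTopLens2 ++ coverTopLens3 ++ coverTopLens4 ++ coverTopLens5 ++ coverTopLens6 ++ coverTopLens7 ++ coverTopLens8 ++ coverTopLens9

theorem coverTop_all : ∀ p ∈ coverTopLens, top.fastChunk2 labE labR labB chiN 3 p.1 p.2 = true := by
  intro p hp
  simp only [coverTopLens, List.mem_append, or_assoc] at hp
  rcases hp with h | h | h | h | h | h | h | h | h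
  · exact coverTopLens1_ok _ h
  · exact coverTopLens2_ok _ h
  · exact coverTopLens3_ok _ h
  · exact coverTopLens4_ok _ h
  · exact coverTopLens5_ok _ h
  · exact coverTopLens6_ok _ h
  · exact coverTopLens7_ok _ h
  · exact coverTopLens8_ok _ h
  · exact coverTopLens9_ok _ h

theorem coverTop_cover : (List.range 756).all
    (fun v => coverTopLens.any fun p => p.1 ≤ v && v < p.1 + p.2) = true := by decide +kernel

end Cfsg.Agent.H12.CExt.G23
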