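import Cfsg.Agent.H12.CentralExt.G23ChecksEdgeTop1

/-!
Kernel checks of the certificate for the group G2(3): edgeTop.
-/

set_option autoImplicit false
set_option maxRecDepth 100000

namespace Cfsg.Agent.H12.CExt.G23

/-- The chunks. -/
def edgeTopLens : List (ℕ × ℕ) := edgeTopLens1

theorem edgeTop_all : ∀ p ∈ edgeTopLens, top.chunk2 p.1 p.2 = true := by
  intro p hp
  exact edgeTopLens1_ok p hp

theorem edgeTop_cover : (List.range 756).all
    (fun v => edgeTopLens.any fun p => p.1 ≤ v && v < p.1 + p.2) = true := by decide +kernel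

end Cfsg.Agent.H12.CExt.G23
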