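import Cfsg.Agent.H12.CentralExt.G23ChecksBound
import Cfsg.Agent.H12.CentralExt.G23ChecksEdge
import Cfsg.Agent.H12.CentralExt.G23ChecksEdgeTop
import Cfsg.Agent.H12.CentralExt.G23ChecksCover
import Cfsg.Agent.H12.CentralExt.G23ChecksCoverTop
import Cfsg.Agent.H12.CentralExt.G23Rels
import Cfsg.Agent.H12.CentralExt.G23Gens

/-!
The Schur multiplier of the Chevalley group G2(3) is of order three.
-/

set_option autoImplicit false
set_option maxRecDepth 100000

namespace Cfsg.Agent.H12.CExt.G23

open Cfsg Cfsg.Lie Cfsg.Agent.H69.G2Three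

local instance : Fact (Nat.Prime 3) := ⟨by norm_num⟩

theorem base : Base2 top ga gb where
  rel := rels_eq
  gen := generates
  card := by rw [card_group_three]; rfl
  cardN := by rw [card_group_three]; exact dvd_refl 4245696
  subN := rfl
  graph1 := allOK_of_chunks edge_all edge_cover
  graph2 := Two.allOK2_of_chunks edgeTop_all edgeTop_cover
  hjd := by decide
  hjb := by decide
  pos := by decide
  posN := by decide
  letters := by decide +kernel

theorem hexp (x : Ker) : (top.N / top.sub.nb) • x = 0 := by
  rw [nsmul_eq_mul, show top.N / top.sub.nb = 3 * 108864 from rfl, Nat.cast_mul,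
    show ((3 : ℕ) : ZMod 3) = 0 from rfl, zero_mul, zero_mul]

theorem hexp3 (x : Ker) : (top.N / 3) • x = 0 := by
  rw [nsmul_eq_mul, show top.N / 3 = 3 * 471744 from rfl, Nat.cast_mul,
    show ((3 : ℕ) : ZMod 3) = 0 from rfl, zero_mul, zero_mul]

theorem multiplier : Cfsg.HasSchurMultiplier ↥(chevG2.group (ZMod 3)) (Multiplicative Ker) :=
  hasSchurMultiplier2 base bound rows1 rows2 rows_ok bound_ok
    (top.coverOK_of_fast (p := 3) labE labR chiN cover_all cover_cover base.graph1
      (by decide +kernel))
    (top.cycOK_of_fast (p := 3) labE labR labB chiN coverTop_all coverTop_cover)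
    hexp (by decide) 1 3 (by decide +kernel) (by decide) hexp3
    (fun c hc => by
      interval_cases c
      · exact ⟨0, by decide, [0], by decide +kernel⟩
      · exact ⟨1, by decide, [1, 1], by decide +kernel⟩)
    (fun x => ⟨fun j => if j = 5 then x.val else 0, by revert x; decide +kernel⟩)
    (by decide +kernel) (by decide +kernel) (by decide +kernel)
    (by rw [Nat.card_eq_fintype_card]; decide)

end Cfsg.Agent.H12.CExt.G23
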