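import Cfsg.Agent.H12.CentralExt.G23Data

/-!
Kernel checks of the certificate for the group G2(3): cover, part 1.
-/

set_option autoImplicit false
set_option maxRecDepth 100000

namespace Cfsg.Agent.H12.CExt.G23

theorem cover_0 : top.fastChunk1 labE labR chiN 3 0 108 = true := by decide +kernel

theorem cover_108 : top.fastChunk1 labE labR chiN 3 108 108 = true := by decide +kernel

theorem cover_216 : top.fastChunk1 labE labR chiN 3 216 108 = true := by decide +kernel

theorem cover_324 : top.fastChunk1 labE labR chiN 3 324 108 = true := by decide +kernel

/-- The chunks of this part. -/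
def coverLens1 : List (ℕ × ℕ) := [(0, 108), (108, 108), (216, 108), (324, 108)]

theorem coverLens1_ok : ∀ p ∈ coverLens1, top.fastChunk1 labE labR chiN 3 p.1 p.2 = true := by
  intro p hp
  simp only [coverLens1, List.mem_cons, List.not_mem_nil, or_false] at hp
  rcases hp with rfl | rfl | rfl | rfl
  · exact cover_0
  · exact cover_108
  · exact cover_216
  · exact cover_324

end Cfsg.Agent.H12.CExt.G23
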