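import Cfsg.Agent.H12.CentralExt.G23Data

/-!
Kernel checks of the certificate for the group G2(3): coverTop, part 1.
-/

set_option autoImplicit false
set_option maxRecDepth 100000

namespace Cfsg.Agent.H12.CExt.G23

theorem coverTop_0 : top.fastChunk2 labE labR labB chiN 3 0 4 = true := by decide +kernel

theorem coverTop_4 : top.fastChunk2 labE labR labB chiN 3 4 4 = true := by decide +kernel

theorem coverTop_8 : top.fastChunk2 labE labR labB chiN 3 8 4 = true := by decide +kernel

theorem coverTop_12 : top.fastChunk2 labE labR labB chiN 3 12 4 = true := by decide +kernel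

theorem coverTop_16 : top.fastChunk2 labE labR labB chiN 3 16 4 = true := by decide +kernel

theorem coverTop_20 : top.fastChunk2 labE labR labB chiN 3 20 4 = true := by decide +kernel

theorem coverTop_24 : top.fastChunk2 labE labR labB chiN 3 24 4 = true := by decide +kernel

theorem coverTop_28 : top.fastChunk2 labE labR labB chiN 3 28 4 = true := by decide +kernel

theorem coverTop_32 : top.fastChunk2 labE labR labB chiN 3 32 4 = true := by decide +kernel

theorem coverTop_36 : top.fastChunk2 labE labR labB chiN 3 36 4 = true := by decide +kernel

theorem coverTop_40 : top.fastChunk2 labE labR labB chiN 3 40 4 = true := by decide +kernel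

theorem coverTop_44 : top.fastChunk2 labE labR labB chiN 3 44 4 = true := by decide +kernel

theorem coverTop_48 : top.fastChunk2 labE labR labB chiN 3 48 4 = true := by decide +kernel

theorem coverTop_52 : top.fastChunk2 labE labR labB chiN 3 52 4 = true := by decide +kernel

theorem coverTop_56 : top.fastChunk2 labE labR labB chiN 3 56 4 = true := by decide +kernel

theorem coverTop_60 : top.fastChunk2 labE labR labB chiN 3 60 4 = true := by decide +kernel

theorem coverTop_64 : top.fastChunk2 labE labR labB chiN 3 64 4 = true := by decide +kernel

theorem coverTop_68 : top.fastChunk2 labE labR labB chiN 3 68 4 = true := by decide +kernel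

theorem coverTop_72 : top.fastChunk2 labE labR labB chiN 3 72 4 = true := by decide +kernel

theorem coverTop_76 : top.fastChunk2 labE labR labB chiN 3 76 4 = true := by decide +kernel

theorem coverTop_80 : top.fastChunk2 labE labR labB chiN 3 80 4 = true := by decide +kernel

/-- The chunks of this part. -/
def coverTopLens1 : List (ℕ × ℕ) := [(0, 4), (4, 4), (8, 4), (12, 4), (16, 4), (20, 4), (24, 4), (28, 4), (32, 4), (36, 4), (40, 4), (44, 4), (48, 4), (52, 4), (56, 4), (60, 4), (64, 4), (68, 4), (72, 4), (76, 4), (80, 4)]

theorem coverTopLens1_ok : ∀ p ∈ coverTopLens1, top.fastChunk2 labE labR labB chiN 3 p.1 p.2 = true := by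
  intro p hp
  simp only [coverTopLens1, List.mem_cons, List.not_mem_nil, or_false] at hp
  rcases hp with rfl | rfl | rfl | rfl | rfl | rfl | rfl | rfl | rfl | rfl | rfl | rfl | rfl | rfl | rfl | rfl | rfl | rfl | rfl | rfl | rfl
  · exact coverTop_0
  · exact coverTop_4
  · exact coverTop_8
  · exact coverTop_12
  · exact coverTop_16
  · exact coverTop_20
  · exact coverTop_24
  · exact coverTop_28
  · exact coverTop_32
  · exact coverTop_36
  · exact coverTop_40
  · exact coverTop_44
  · exact coverTop_48
  · exact coverTop_52
  · exact coverTop_56
  · exact coverTop_60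
  · exact coverTop_64
  · exact coverTop_68
  · exact coverTop_72
  · exact coverTop_76
  · exact coverTop_80

end Cfsg.Agent.H12.CExt.G23
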