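import Cfsg.Agent.H12.CentralExt.G23Data

/-!
Kernel checks of the certificate for the group G2(3): edge, part 1.
-/

set_option autoImplicit false
set_option maxRecDepth 100000

namespace Cfsg.Agent.H12.CExt.G23

theorem edge_0 : chunkOK top.sub 0 108 = true := by decide +kernel

theorem edge_108 : chunkOK top.sub 108 108 = true := by decide +kernel

theorem edge_216 : chunkOK top.sub 216 108 = true := by decide +kernel

theorem edge_324 : chunkOK top.sub 324 108 = true := by decide +kernel

/-- The chunks of this part. -/
def edgeLens1 : List (ℕ × ℕ) := [(0, 108), (108, 108), (216, 108), (324, 108)]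

theorem edgeLens1_ok : ∀ p ∈ edgeLens1, chunkOK top.sub p.1 p.2 = true := by
  intro p hp
  simp only [edgeLens1, List.mem_cons, List.not_mem_nil, or_false] at hp
  rcases hp with rfl | rfl | rfl | rfl
  · exact edge_0
  · exact edge_108
  · exact edge_216
  · exact edge_324

end Cfsg.Agent.H12.CExt.G23
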