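import Cfsg.Agent.H12.CentralExt.G23Data

/-!
Kernel checks of the certificate for the group G2(3): edgeTop, part 1.
-/

set_option autoImplicit false
set_option maxRecDepth 100000

namespace Cfsg.Agent.H12.CExt.G23

theorem edgeTop_0 : top.chunk2 0 60 = true := by decide +kernel

theorem edgeTop_60 : top.chunk2 60 60 = true := by decide +kernel

theorem edgeTop_120 : top.chunk2 120 60 = true := by decide +kernel

theorem edgeTop_180 : top.chunk2 180 60 = true := by decide +kernel

theorem edgeTop_240 : top.chunk2 240 60 = true := by decide +kernel

theorem edgeTop_300 : top.chunk2 300 60 = true := by decide +kernel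

theorem edgeTop_360 : top.chunk2 360 60 = true := by decide +kernel

theorem edgeTop_420 : top.chunk2 420 60 = true := by decide +kernel

theorem edgeTop_480 : top.chunk2 480 60 = true := by decide +kernel

theorem edgeTop_540 : top.chunk2 540 60 = true := by decide +kernel

theorem edgeTop_600 : top.chunk2 600 60 = true := by decide +kernel

theorem edgeTop_660 : top.chunk2 660 60 = true := by decide +kernel

theorem edgeTop_720 : top.chunk2 720 36 = true := by decide +kernel

/-- The chunks of this part. -/
def edgeTopLens1 : List (ℕ × ℕ) := [(0, 60), (60, 60), (120, 60), (180, 60), (240, 60), (300, 60), (360, 60), (420, 60), (480, 60), (540, 60), (600, 60), (660, 60), (720, 36)]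

theorem edgeTopLens1_ok : ∀ p ∈ edgeTopLens1, top.chunk2 p.1 p.2 = true := by
  intro p hp
  simp only [edgeTopLens1, List.mem_cons, List.not_mem_nil, or_false] at hp
  rcases hp with rfl | rfl | rfl | rfl | rfl | rfl | rfl | rfl | rfl | rfl | rfl | rfl | rfl
  · exact edgeTop_0
  · exact edgeTop_60
  · exact edgeTop_120
  · exact edgeTop_180
  · exact edgeTop_240
  · exact edgeTop_300
  · exact edgeTop_360
  · exact edgeTop_420
  · exact edgeTop_480
  · exact edgeTop_540
  · exact edgeTop_600
  · exact edgeTop_660
  · exact edgeTop_720

end Cfsg.Agent.H12.CExt.G23
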