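import Cfsg.Agent.H12.CentralExt.TwoBase
import Cfsg.Agent.H12.CentralExt.J2Data
import Cfsg.Agent.H15.J2.Hundred

/-!
Two generators of the Hall–Janko group satisfying the relators of the certificate.
-/

set_option autoImplicit false

namespace Cfsg.Agent.H12.CExt.J2

open Cfsg.Agent.H15.J2

noncomputable section

/-- The first generator, as a word in the four reflections. -/
def aw : List ℕ := [3, 0, 2, 3, 0, 2, 0, 3, 2, 0, 3]

/-- The second generator, as a word in the four reflections. -/
def bw : List ℕ := [2, 3, 3, 3, 0, 1, 2, 3, 2, 0, 0, 3]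

/-- The four reflections as words in the two generators. -/
def refl : List (List ℕ) :=
  [[1, 0, 1, 0, 1, 0, 1, 1, 0, 1, 0, 1, 0, 1, 0, 1, 0, 1, 0],
   [1, 1, 1, 1, 0, 1, 1, 0, 1, 0, 1, 0, 1, 1, 0, 1, 0, 1, 0, 1, 1, 1, 1, 0, 1, 1, 0],
   [0, 1, 1, 0, 1, 1, 1, 1, 1, 1, 0, 1, 0, 1, 1, 1, 1, 1, 0],
   [1, 1, 1, 1, 0, 1, 1, 1, 1, 1, 0, 1, 1, 1, 0, 1, 1, 1, 1, 0, 1, 1, 0, 1, 1, 1]]

/-- An element of the group on the lines named by a word. -/
def el (w : List ℕ) : G315 := ⟨wordPerm w, wordPerm_mem w⟩

/-- A word in the two generators as a word in the reflections. -/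
def flat (w : List ℕ) : List ℕ := w.flatMap fun c => if c = 0 then aw else bw

theorem ev_eq : ∀ w : List ℕ, ev (el aw) (el bw) w = el (flat w)
  | [] => Subtype.ext (by simp [ev_nil, el, flat, wordPerm])
  | c :: w => by
    rw [ev_cons, ev_eq w]
    refine Subtype.ext ?_
    by_cases h : c = 0 <;> simp [letter, el, flat, h, wordPerm, List.map_append, List.prod_append]

theorem setHom_injective : Function.Injective setHom := by
  have := G315_simple
  rcases Subgroup.Normal.eq_bot_or_eq_top (inferInstance : setHom.ker.Normal) with h | h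
  · exact (MonoidHom.ker_eq_bot_iff _).mp h
  · exfalso
    obtain ⟨g, hg⟩ := set_transitive 1
    have : setHom g = 1 := MonoidHom.mem_ker.mp (h ▸ Subgroup.mem_top g)
    rw [this] at hg
    exact absurd hg (by decide)

theorem setHom_el : ∀ {w : List ℕ}, (∀ g ∈ w, g < 4) → ∀ i : Fin 100,
    (setHom (el w) i : ℕ) = w.foldr dImg i
  | [], _, i => by
    rw [show el [] = 1 from Subtype.ext (by simp [el, wordPerm]), map_one]; rfl
  | g :: w, h, i => by
    have hg : g < 4 := h g List.mem_cons_self
    have e : el (g :: w) = ⟨genPerm ⟨g, hg⟩, Subgroup.subset_closure ⟨_, rfl⟩⟩ * el w :=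
      Subtype.ext (by simp [el, wordPerm, gp, hg])
    rw [e, map_mul, setHom_gen, Equiv.Perm.mul_apply]
    show dImg g _ = dImg g _
    rw [setHom_el (fun x hx => h x (List.mem_cons_of_mem _ hx)) i]

/-- The images of the sets under the first generator, packed. -/
def aTab : ℕ := 0x16fe760be556d53ac42c2aedae028ae67aca38651f37347bb531a9a22361eb7c4fa0bc90729388159aa76622d3048baed0025e38d68391af4b10390987adba9610c83545af14264a1a09299409c628632421ac9a3151580

/-- The images of the sets under the second generator, packed. -/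
def bTab : ℕ := 0xc7894dc3c624e14750ae070e96a4bb3874b773d32f62dcec5b4321d660815483669a13b252dc76548e167c5ccdea77de010562086ae7d627a01e62557110c29a3dcc01435b2e174630322f49335088805955420010fda89

/-- The packed action of a letter. -/
def act (c i : ℕ) : ℕ := (if c = 0 then aTab else bTab) >>> (7 * i) % 128

theorem tab_ok : ((List.range 100).all fun i =>
    (act 0 i == aw.foldr dImg i) && (act 1 i == bw.foldr dImg i) &&
      Nat.blt (act 0 i) 100 && Nat.blt (act 1 i) 100) = true := by decide +kernel

theorem flat_fold : ∀ (w : List ℕ) (i : ℕ), i < 100 →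
    w.foldr act i < 100 ∧ (flat w).foldr dImg i = w.foldr act i
  | [], i, hi => ⟨hi, rfl⟩
  | c :: w, i, hi => by
    obtain ⟨h1, h2⟩ := flat_fold w i hi
    have h := List.all_eq_true.mp tab_ok _ (List.mem_range.mpr h1)
    simp only [Bool.and_eq_true, beq_iff_eq, Nat.blt_eq] at h
    obtain ⟨⟨⟨ha, hb⟩, la⟩, lb⟩ := h
    rw [flat, List.flatMap_cons, List.foldr_append, List.foldr_cons, ← flat, h2]
    by_cases hc : c = 0
    · subst hc; exact ⟨la, by rw [if_pos rfl, ha]⟩
    · have e : act c (w.foldr act i) = act 1 (w.foldr act i) := by simp [act, hc]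
      exact ⟨e ▸ lb, by rw [if_neg hc, e, hb]⟩

theorem flat_lt : ∀ w : List ℕ, ∀ g ∈ flat w, g < 4 := by
  intro w g hg
  obtain ⟨c, -, hc⟩ := List.mem_flatMap.mp hg
  have h : ((aw ++ bw).all fun g => Nat.blt g 4) = true := by decide
  refine Nat.le_of_ble_eq_true (List.all_eq_true.mp h g ?_)
  split at hc <;> simp [hc]

theorem el_flat {w v : List ℕ} (hv : ∀ g ∈ v, g < 4)
    (h : ((List.range 100).all fun i => w.foldr act i == v.foldr dImg i) = true) :
    el (flat w) = el v := by
  refine setHom_injective (Equiv.ext fun i => Fin.ext ?_)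
  rw [setHom_el (flat_lt w), setHom_el hv, (flat_fold w i i.2).2]
  exact eq_of_beq (List.all_eq_true.mp h i (List.mem_range.mpr i.2))

theorem rels_act : (top.all.rels.all fun r =>
    (List.range 100).all fun i => r.foldr act i == ([] : List ℕ).foldr dImg i) = true := by
  decide +kernel

theorem refl_act : ((List.range 4).all fun g =>
    (List.range 100).all fun i => (refl.getD g []).foldr act i == [g].foldr dImg i) = true := by
  decide +kernel

theorem rels_eq (r : List ℕ) (hr : r ∈ top.all.rels) : ev (el aw) (el bw) r = 1 := by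
  rw [ev_eq, el_flat (v := []) (by simp) (List.all_eq_true.mp rels_act r hr)]
  exact Subtype.ext (by simp [el, wordPerm])

theorem generates : Subgroup.closure {el aw, el bw} = (⊤ : Subgroup G315) := by
  have hev : ∀ w : List ℕ, ev (el aw) (el bw) w ∈ Subgroup.closure {el aw, el bw} := by
    intro w
    induction w with
    | nil => exact one_mem _
    | cons c w ih =>
      rw [ev_cons]
      refine mul_mem ?_ ih
      unfold letter
      split <;> exact Subgroup.subset_closure (by simp)
  have hle : G315 ≤ (Subgroup.closure {el aw, el bw}).map G315.subtype := by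
    refine (Subgroup.closure_le _).mpr ?_
    rintro _ ⟨g, rfl⟩
    refine ⟨_, hev (refl.getD g []), ?_⟩
    rw [ev_eq, el_flat (v := [(g : ℕ)]) (by simp)
      (List.all_eq_true.mp refl_act g (List.mem_range.mpr g.2))]
    simp [el, wordPerm, gp, g.2]
  refine eq_top_iff.mpr fun x _ => ?_
  obtain ⟨y, hy, e⟩ := hle x.2
  exact Subtype.ext e ▸ hy

end

end Cfsg.Agent.H12.CExt.J2
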