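import Cfsg.Agent.H12.CentralExt.J2Data

/-!
Kernel checks of the certificate for the group J2: cover.
-/

set_option autoImplicit false
set_option maxRecDepth 100000

namespace Cfsg.Agent.H12.CExt.J2

theorem cover_0 : coverChunk top.sub redA (top.chiSub chi) 0 108 = true := by decide +kernel

theorem cover_108 : coverChunk top.sub redA (top.chiSub chi) 108 108 = true := by decide +kernel

theorem cover_216 : coverChunk top.sub redA (top.chiSub chi) 216 108 = true := by decide +kernel

theorem cover_324 : coverChunk top.sub redA (top.chiSub chi) 324 108 = true := by decide +kernel

theorem cover_432 : coverChunk top.sub redA (top.chiSub chi) 432 108 = true := by decide +kernel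

theorem cover_540 : coverChunk top.sub redA (top.chiSub chi) 540 108 = true := by decide +kernel

theorem cover_648 : coverChunk top.sub redA (top.chiSub chi) 648 108 = true := by decide +kernel

theorem cover_756 : coverChunk top.sub redA (top.chiSub chi) 756 108 = true := by decide +kernel

/-- The chunks. -/
def coverLens : List (ℕ × ℕ) := [(0, 108), (108, 108), (216, 108), (324, 108), (432, 108), (540, 108), (648, 108), (756, 108)]

theorem cover_all : ∀ p ∈ coverLens, coverChunk top.sub redA (top.chiSub chi) p.1 p.2 = true := by
  intro p hp
  simp only [coverLens, List.mem_cons, List.not_mem_nil, or_false] at hp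
  rcases hp with rfl | rfl | rfl | rfl | rfl | rfl | rfl | rfl
  · exact cover_0
  · exact cover_108
  · exact cover_216
  · exact cover_324
  · exact cover_432
  · exact cover_540
  · exact cover_648
  · exact cover_756

theorem cover_cover : (List.range 864).all
    (fun v => coverLens.any fun p => p.1 ≤ v && v < p.1 + p.2) = true := by decide +kernel

end Cfsg.Agent.H12.CExt.J2
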