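import Cfsg.Agent.H12.CentralExt.J2Data

/-!
Kernel checks of the certificate for the group J2: coverTop, part 3.
-/

set_option autoImplicit false
set_option maxRecDepth 100000

namespace Cfsg.Agent.H12.CExt.J2

theorem coverTop_40 : top.coverChunk2 redA redB chi 40 4 = true := by decide +kernel

theorem coverTop_44 : top.coverChunk2 redA redB chi 44 4 = true := by decide +kernel

theorem coverTop_48 : top.coverChunk2 redA redB chi 48 4 = true := by decide +kernel

theorem coverTop_52 : top.coverChunk2 redA redB chi 52 4 = true := by decide +kernel

theorem coverTop_56 : top.coverChunk2 redA redB chi 56 4 = true := by decide +kernel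

end Cfsg.Agent.H12.CExt.J2
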