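import Cfsg.Agent.H12.CentralExt.J2Data

/-!
Kernel checks of the certificate for the group J2: coverTop, part 4.
-/

set_option autoImplicit false
set_option maxRecDepth 100000

namespace Cfsg.Agent.H12.CExt.J2

theorem coverTop_60 : top.coverChunk2 redA redB chi 60 4 = true := by decide +kernel

theorem coverTop_64 : top.coverChunk2 redA redB chi 64 4 = true := by decide +kernel

theorem coverTop_68 : top.coverChunk2 redA redB chi 68 4 = true := by decide +kernel

theorem coverTop_72 : top.coverChunk2 redA redB chi 72 4 = true := by decide +kernel

theorem coverTop_76 : top.coverChunk2 redA redB chi 76 4 = true := by decide +kernel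

end Cfsg.Agent.H12.CExt.J2
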