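import Cfsg.Agent.H12.CentralExt.J2Data

/-!
Kernel checks of the certificate for the group J2: coverTop, part 5.
-/

set_option autoImplicit false
set_option maxRecDepth 100000

namespace Cfsg.Agent.H12.CExt.J2

theorem coverTop_80 : top.coverChunk2 redA redB chi 80 4 = true := by decide +kernel

theorem coverTop_84 : top.coverChunk2 redA redB chi 84 4 = true := by decide +kernel

theorem coverTop_88 : top.coverChunk2 redA redB chi 88 4 = true := by decide +kernel

theorem coverTop_92 : top.coverChunk2 redA redB chi 92 4 = true := by decide +kernel

theorem coverTop_96 : top.coverChunk2 redA redB chi 96 4 = true := by decide +kernel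

end Cfsg.Agent.H12.CExt.J2
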