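import Cfsg.Agent.H12.CentralExt.J2ChecksCoverTop1
import Cfsg.Agent.H12.CentralExt.J2ChecksCoverTop2
import Cfsg.Agent.H12.CentralExt.J2ChecksCoverTop3
import Cfsg.Agent.H12.CentralExt.J2ChecksCoverTop4
import Cfsg.Agent.H12.CentralExt.J2ChecksCoverTop5

/-!
Kernel checks of the certificate for the group J2: coverTop.
-/

set_option autoImplicit false
set_option maxRecDepth 100000

namespace Cfsg.Agent.H12.CExt.J2

/-- The chunks. -/
def coverTopLens : List (ℕ × ℕ) := [(0, 4), (4, 4), (8, 4), (12, 4), (16, 4), (20, 4), (24, 4), (28, 4), (32, 4), (36, 4), (40, 4), (44, 4), (48, 4), (52, 4), (56, 4), (60, 4), (64, 4), (68, 4), (72, 4), (76, 4), (80, 4), (84, 4), (88, 4), (92, 4), (96, 4)]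

theorem coverTop_all : ∀ p ∈ coverTopLens, top.coverChunk2 redA redB chi p.1 p.2 = true := by
  intro p hp
  simp only [coverTopLens, List.mem_cons, List.not_mem_nil, or_false] at hp
  rcases hp with rfl | rfl | rfl | rfl | rfl | rfl | rfl | rfl | rfl | rfl | rfl | rfl | rfl | rfl | rfl | rfl | rfl | rfl | rfl | rfl | rfl | rfl | rfl | rfl | rfl
  · exact coverTop_0
  · exact coverTop_4
  · exact coverTop_8
  · exact coverTop_12
  · exact coverTop_16
  · exact coverTop_20
  · exact coverTop_24
  · exact coverTop_28
  · exact coverTop_32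
  · exact coverTop_36
  · exact coverTop_40
  · exact coverTop_44
  · exact coverTop_48
  · exact coverTop_52
  · exact coverTop_56
  · exact coverTop_60
  · exact coverTop_64
  · exact coverTop_68
  · exact coverTop_72
  · exact coverTop_76
  · exact coverTop_80
  · exact coverTop_84
  · exact coverTop_88
  · exact coverTop_92
  · exact coverTop_96

theorem coverTop_cover : (List.range 100).all
    (fun v => coverTopLens.any fun p => p.1 ≤ v && v < p.1 + p.2) = true := by decide +kernel

end Cfsg.Agent.H12.CExt.J2
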