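import Cfsg.Agent.H12.CentralExt.J2Data

/-!
Kernel checks of the certificate for the group J2: edge.
-/

set_option autoImplicit false
set_option maxRecDepth 100000

namespace Cfsg.Agent.H12.CExt.J2

theorem edge_0 : chunkOK top.sub 0 108 = true := by decide +kernel

theorem edge_108 : chunkOK top.sub 108 108 = true := by decide +kernel

theorem edge_216 : chunkOK top.sub 216 108 = true := by decide +kernel

theorem edge_324 : chunkOK top.sub 324 108 = true := by decide +kernel

theorem edge_432 : chunkOK top.sub 432 108 = true := by decide +kernel

theorem edge_540 : chunkOK top.sub 540 108 = true := by decide +kernel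

theorem edge_648 : chunkOK top.sub 648 108 = true := by decide +kernel

theorem edge_756 : chunkOK top.sub 756 108 = true := by decide +kernel

/-- The chunks. -/
def edgeLens : List (ℕ × ℕ) := [(0, 108), (108, 108), (216, 108), (324, 108), (432, 108), (540, 108), (648, 108), (756, 108)]

theorem edge_all : ∀ p ∈ edgeLens, chunkOK top.sub p.1 p.2 = true := by
  intro p hp
  simp only [edgeLens, List.mem_cons, List.not_mem_nil, or_false] at hp
  rcases hp with rfl | rfl | rfl | rfl | rfl | rfl | rfl | rfl
  · exact edge_0
  · exact edge_108
  · exact edge_216
  · exact edge_324
  · exact edge_432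
  · exact edge_540
  · exact edge_648
  · exact edge_756

theorem edge_cover : (List.range 864).all
    (fun v => edgeLens.any fun p => p.1 ≤ v && v < p.1 + p.2) = true := by decide +kernel

end Cfsg.Agent.H12.CExt.J2
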