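import Cfsg.Agent.H12.CentralExt.J2Data

/-!
Kernel checks of the certificate for the group J2: edgeTop.
-/

set_option autoImplicit false
set_option maxRecDepth 100000

namespace Cfsg.Agent.H12.CExt.J2

theorem edgeTop_0 : top.chunk2 0 25 = true := by decide +kernel

theorem edgeTop_25 : top.chunk2 25 25 = true := by decide +kernel

theorem edgeTop_50 : top.chunk2 50 25 = true := by decide +kernel

theorem edgeTop_75 : top.chunk2 75 25 = true := by decide +kernel

/-- The chunks. -/
def edgeTopLens : List (ℕ × ℕ) := [(0, 25), (25, 25), (50, 25), (75, 25)]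

theorem edgeTop_all : ∀ p ∈ edgeTopLens, top.chunk2 p.1 p.2 = true := by
  intro p hp
  simp only [edgeTopLens, List.mem_cons, List.not_mem_nil, or_false] at hp
  rcases hp with rfl | rfl | rfl | rfl
  · exact edgeTop_0
  · exact edgeTop_25
  · exact edgeTop_50
  · exact edgeTop_75

theorem edgeTop_cover : (List.range 100).all
    (fun v => edgeTopLens.any fun p => p.1 ≤ v && v < p.1 + p.2) = true := by decide +kernel

end Cfsg.Agent.H12.CExt.J2
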