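import Cfsg.Agent.H12.CentralExt.J2ChecksBound
import Cfsg.Agent.H12.CentralExt.J2ChecksEdge
import Cfsg.Agent.H12.CentralExt.J2ChecksEdgeTop
import Cfsg.Agent.H12.CentralExt.J2ChecksCover
import Cfsg.Agent.H12.CentralExt.J2ChecksCoverTop
import Cfsg.Agent.H12.CentralExt.J2Base

/-!
The Schur multiplier of the Hall–Janko group on 315 lines is of order two.
-/

set_option autoImplicit false
set_option maxRecDepth 100000

namespace Cfsg.Agent.H12.CExt.J2

open Cfsg.Agent.H15.J2

theorem base : Base2 top (el aw) (el bw) where
  rel := rels_eq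
  gen := generates
  card := by rw [G315_card]; rfl
  cardN := by rw [G315_card]; exact dvd_refl 604800
  subN := rfl
  graph1 := allOK_of_chunks edge_all edge_cover
  graph2 := Two.allOK2_of_chunks edgeTop_all edgeTop_cover
  hjd := by decide
  hjb := by decide
  pos := by decide
  posN := by decide
  letters := by decide +kernel

theorem hexp (x : Ker) : (top.N / top.sub.nb) • x = 0 := by
  rw [nsmul_eq_mul, show top.N / top.sub.nb = 2 * 43200 from rfl, Nat.cast_mul,
    show ((2 : ℕ) : ZMod 2) = 0 from rfl, zero_mul, zero_mul]

theorem hexp7 (x : Ker) : (top.N / 7) • x = 0 := hexp x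

theorem multiplier : Cfsg.HasSchurMultiplier G315 (Multiplicative Ker) :=
  hasSchurMultiplier2 base bound rows1 rows2 rows_ok bound_ok
    (coverOK_of_chunks top.sub redA (top.chiSub chi) cover_all cover_cover base.graph1
      (by decide +kernel))
    (cycOK_of_chunks top redA redB chi coverTop_all coverTop_cover)
    hexp (by decide) 1 7 (by decide +kernel) (by decide) hexp7
    (fun c hc => by
      interval_cases c
      · exact ⟨0, by decide, [0], by decide +kernel⟩
      · exact ⟨1, by decide, [1, 1, 1, 1, 1, 1], by decide +kernel⟩)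
    (fun x => ⟨fun j => if j = 9 then x.val else 0, by revert x; decide +kernel⟩)
    (by decide +kernel) (by decide +kernel) (by decide +kernel)
    (by rw [Nat.card_eq_fintype_card]; decide)

end Cfsg.Agent.H12.CExt.J2
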