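import Cfsg.Agent.H12.CentralExt.J2Data

/-!
Kernel checks of the certificate for the group J2: relations.
-/

set_option autoImplicit false
set_option maxRecDepth 100000

namespace Cfsg.Agent.H12.CExt.J2

theorem rows_ok : top.rowsOK rows1 rows2 = true := by decide +kernel

theorem bound_ok : genBoundOK top.all bound (top.rowList rows1 rows2) = true := by decide +kernel

end Cfsg.Agent.H12.CExt.J2
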