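import Cfsg.Agent.H12.CentralExt.L34Data

/-!
Kernel checks of the PSL(3, 4) certificate, part 2.
-/

set_option autoImplicit false

namespace Cfsg.Agent.H12.CExt.L34

theorem edge_720 : chunkOK graph 720 180 = true := by decide +kernel

theorem cover_720 : coverChunk graph redLab chi 720 180 = true := by decide +kernel

theorem edge_900 : chunkOK graph 900 180 = true := by decide +kernel

theorem cover_900 : coverChunk graph redLab chi 900 180 = true := by decide +kernel

theorem edge_1080 : chunkOK graph 1080 180 = true := by decide +kernel

theorem cover_1080 : coverChunk graph redLab chi 1080 180 = true := by decide +kernel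

theorem edge_1260 : chunkOK graph 1260 180 = true := by decide +kernel

theorem cover_1260 : coverChunk graph redLab chi 1260 180 = true := by decide +kernel

end Cfsg.Agent.H12.CExt.L34
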