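import Cfsg.Agent.H12.CentralExt.L34Data

/-!
Kernel checks of the PSL(3, 4) certificate, part 3.
-/

set_option autoImplicit false

namespace Cfsg.Agent.H12.CExt.L34

theorem edge_1440 : chunkOK graph 1440 180 = true := by decide +kernel

theorem cover_1440 : coverChunk graph redLab chi 1440 180 = true := by decide +kernel

theorem edge_1620 : chunkOK graph 1620 180 = true := by decide +kernel

theorem cover_1620 : coverChunk graph redLab chi 1620 180 = true := by decide +kernel

theorem edge_1800 : chunkOK graph 1800 180 = true := by decide +kernel

theorem cover_1800 : coverChunk graph redLab chi 1800 180 = true := by decide +kernel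

theorem edge_1980 : chunkOK graph 1980 180 = true := by decide +kernel

theorem cover_1980 : coverChunk graph redLab chi 1980 180 = true := by decide +kernel

end Cfsg.Agent.H12.CExt.L34
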