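import Cfsg.Agent.H12.CentralExt.L34Data

/-!
Kernel checks of the PSL(3, 4) certificate, part 4.
-/

set_option autoImplicit false

namespace Cfsg.Agent.H12.CExt.L34

theorem edge_2160 : chunkOK graph 2160 180 = true := by decide +kernel

theorem cover_2160 : coverChunk graph redLab chi 2160 180 = true := by decide +kernel

theorem edge_2340 : chunkOK graph 2340 180 = true := by decide +kernel

theorem cover_2340 : coverChunk graph redLab chi 2340 180 = true := by decide +kernel

theorem edge_2520 : chunkOK graph 2520 180 = true := by decide +kernel

theorem cover_2520 : coverChunk graph redLab chi 2520 180 = true := by decide +kernel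

theorem edge_2700 : chunkOK graph 2700 180 = true := by decide +kernel

theorem cover_2700 : coverChunk graph redLab chi 2700 180 = true := by decide +kernel

end Cfsg.Agent.H12.CExt.L34
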