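import Cfsg.Agent.H12.CentralExt.L34Checks1
import Cfsg.Agent.H12.CentralExt.L34Checks2
import Cfsg.Agent.H12.CentralExt.L34Checks3
import Cfsg.Agent.H12.CentralExt.L34Checks4
import Cfsg.Agent.H13.Groups

/-!
The Schur multiplier of the three-point stabiliser of M24, a PSL(3, 4), is of type 3 x 4 x 4.
-/

set_option autoImplicit false

namespace Cfsg.Agent.H12.CExt.L34

open Cfsg.Agent.H13 Cfsg.Agent.H13.Data

/-- The chunks. -/
def lens : List (ℕ × ℕ) := [(0, 180), (180, 180), (360, 180), (540, 180), (720, 180), (900, 180), (1080, 180), (1260, 180), (1440, 180), (1620, 180), (1800, 180), (1980, 180), (2160, 180), (2340, 180), (2520, 180), (2700, 180)]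

theorem lens_cover : (List.range 2880).all
    (fun v => lens.any fun p => p.1 ≤ v && v < p.1 + p.2) = true := by decide +kernel

theorem allOK : AllOK graph := by
  refine allOK_of_chunks (lens := lens) (fun p hp => ?_) lens_cover
  simp only [lens, List.mem_cons, List.not_mem_nil, or_false] at hp
  rcases hp with rfl | rfl | rfl | rfl | rfl | rfl | rfl | rfl | rfl | rfl | rfl | rfl | rfl | rfl | rfl | rfl
  · exact edge_0
  · exact edge_180
  · exact edge_360
  · exact edge_540
  · exact edge_720
  · exact edge_900
  · exact edge_1080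
  · exact edge_1260
  · exact edge_1440
  · exact edge_1620
  · exact edge_1800
  · exact edge_1980
  · exact edge_2160
  · exact edge_2340
  · exact edge_2520
  · exact edge_2700

theorem coverOK : CoverOK graph redLab chi := by
  refine coverOK_of_chunks graph redLab chi (lens := lens) (fun p hp => ?_) lens_cover allOK
    (by decide +kernel)
  simp only [lens, List.mem_cons, List.not_mem_nil, or_false] at hp
  rcases hp with rfl | rfl | rfl | rfl | rfl | rfl | rfl | rfl | rfl | rfl | rfl | rfl | rfl | rfl | rfl | rfl
  · exact cover_0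
  · exact cover_180
  · exact cover_360
  · exact cover_540
  · exact cover_720
  · exact cover_900
  · exact cover_1080
  · exact cover_1260
  · exact cover_1440
  · exact cover_1620
  · exact cover_1800
  · exact cover_1980
  · exact cover_2160
  · exact cover_2340
  · exact cover_2520
  · exact cover_2700

theorem exists_elem {a : PL} (ha : validB 24 a = true)
    (hs : sift 24 (chain 24 m21Levels g21) a.1 = true) :
    ∃ g : grp g21, img (toFin (g : Equiv.Perm GolayPt)) = a.1 := by
  obtain ⟨σ, -, rfl⟩ := valid_of_validB ha
  refine ⟨⟨toFin.symm σ, ?_⟩, congrArg img (toFin.apply_symm_apply σ)⟩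
  exact mem_grp_of_sift m21Levels g21_valid m21_check _ (by rwa [toFin.apply_symm_apply])

/-- A word evaluated on image lists. -/
def evImg (x y : List ℕ) : List ℕ → List ℕ
  | [] => List.range 24
  | c :: w => mulL (if c = 0 then x else y) (evImg x y w)

theorem img_ev {g h : grp g21} {x y : List ℕ} (hx : img (toFin (g : Equiv.Perm GolayPt)) = x)
    (hy : img (toFin (h : Equiv.Perm GolayPt)) = y) :
    ∀ w, img (toFin ((ev g h w : grp g21) : Equiv.Perm GolayPt)) = evImg x y w
  | [] => by rw [ev_nil, OneMemClass.coe_one, map_one, img_one]; rfl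
  | c :: w => by
    rw [ev_cons, Subgroup.coe_mul, map_mul, ← mulL_img, img_ev hx hy w, evImg]
    congr 1
    by_cases hc : c = 0 <;> simp [letter, hc, hx, hy]

theorem rels_trivial : (rels.all fun r => evImg la.1 lb.1 r == List.range 24) = true := by
  decide +kernel

/-- Words giving the generators of the stabiliser. -/
def genWords : List (List ℕ) := [[0, 1, 1, 1, 1, 1, 1, 0, 1, 0, 1, 0, 1, 1, 0, 1, 1, 0], [1, 0, 1, 0, 1, 0, 1, 1, 0, 1, 1, 1, 0, 1, 1, 1]]

theorem genWords_ok : genWords.map (evImg la.1 lb.1) = g21.map Prod.fst := by decide +kernel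

theorem exists_base : ∃ ga gb : grp g21, Base graph ga gb := by
  obtain ⟨ga, hga⟩ := exists_elem (a := la) (by decide +kernel) (by decide +kernel)
  obtain ⟨gb, hgb⟩ := exists_elem (a := lb) (by decide +kernel) (by decide +kernel)
  refine ⟨ga, gb, ?_, ?_, ?_, ?_, allOK, by decide +kernel, by decide +kernel, ?_⟩
  · intro r hr
    have h := List.all_eq_true.mp rels_trivial r hr
    rw [beq_iff_eq, ← img_ev hga hgb, ← img_one] at h
    exact Subtype.ext (toFin.injective ((img_injective h).trans (map_one _).symm))
  · have hle : grp g21 ≤ (Subgroup.closure {ga, gb}).map (grp g21).subtype := by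
      refine grp_le g21_valid fun a ha g hg => ?_
      have : a.1 ∈ genWords.map (evImg la.1 lb.1) := by
        rw [genWords_ok]; exact List.mem_map.mpr ⟨a, ha, rfl⟩
      obtain ⟨w, -, hw⟩ := List.mem_map.mp this
      refine ⟨ev ga gb w, ?_, toFin.injective (img_injective ?_)⟩
      · refine list_prod_mem fun t ht => ?_
        obtain ⟨c, -, rfl⟩ := List.mem_map.mp ht
        apply Subgroup.subset_closure
        by_cases hc : c = 0 <;> simp [letter, hc]
      · rw [hg]
        exact (img_ev hga hgb w).trans hw
    rw [eq_top_iff]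
    intro x _
    obtain ⟨y, hy, e⟩ := hle x.2
    rwa [← Subtype.ext e]
  · rw [card_g21]
    decide +kernel
  · rw [card_g21]
    exact dvd_of_eq (by decide +kernel)
  · intro r hr c hc
    have h : (rels.all fun r => r.all fun c => Nat.blt c 2) = true := by decide +kernel
    exact Nat.blt_eq.mp (List.all_eq_true.mp (List.all_eq_true.mp h r hr) c hc)

/-- The multiplier of the stabiliser. -/
theorem hasSchurMultiplier_g21 :
    Cfsg.HasSchurMultiplier (grp g21) (Multiplicative Ker) := by
  obtain ⟨ga, gb, hB⟩ := exists_base
  have hexp : ∀ x : Ker, (20160 / 7) • x = 0 := by decide +kernel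
  have hspan : ∀ x : Ker, ∃ s : Fin 12 × Fin 12,
      x = s.1.val • chi 1 + s.2.val • chi 5 := by decide +kernel
  refine CExt.hasSchurMultiplier hB bound (by decide +kernel) coverOK hexp
    (Nat.dvd_of_mod_eq_zero (by decide +kernel)) (fun x => ?_) (by decide +kernel)
    (by decide +kernel) (by rw [Nat.card_eq_fintype_card]; decide +kernel)
  obtain ⟨s, hs⟩ := hspan x
  refine ⟨fun j => if j = 1 then s.1.val else if j = 5 then s.2.val else 0, ?_⟩
  rw [hs]
  show _ = ((List.range 6).map _).sum
  simp [List.range_succ, add_comm]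

end Cfsg.Agent.H12.CExt.L34
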