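import Cfsg.Agent.H12.CentralExt.L34Data

/-!
Kernel checks of the PSL(3, 4) certificate, part 1.
-/

set_option autoImplicit false

namespace Cfsg.Agent.H12.CExt.L34

theorem edge_0 : chunkOK graph 0 180 = true := by decide +kernel

theorem cover_0 : coverChunk graph redLab chi 0 180 = true := by decide +kernel

theorem edge_180 : chunkOK graph 180 180 = true := by decide +kernel

theorem cover_180 : coverChunk graph redLab chi 180 180 = true := by decide +kernel

theorem edge_360 : chunkOK graph 360 180 = true := by decide +kernel

theorem cover_360 : coverChunk graph redLab chi 360 180 = true := by decide +kernel

theorem edge_540 : chunkOK graph 540 180 = true := by decide +kernel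

theorem cover_540 : coverChunk graph redLab chi 540 180 = true := by decide +kernel

end Cfsg.Agent.H12.CExt.L34
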